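import Mathlib
import Cfsg.Prelude.Def_BaumannBlocks
import Cfsg.Agent.Lib.PGroup.BaumannSect
import Cfsg.Agent.Lib.BlockX.Chain
import Cfsg.Agent.Lib.BPair.Defs

/-! Piece B of S2986: `p'`-elements acting on the chain `E ≥ Q ≥ W ≥ Z` centralize `E`. -/

set_option autoImplicit false
namespace Cfsg.Agent.Lib.BPair
open Subgroup Cfsg Matrix Cfsg.Agent.Lib.PGroup.BaumannSect
open scoped commutatorElement

variable {G : Type*} [Group G] [Finite G] {p : ℕ} [hp : Fact p.Prime]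

omit [Finite G] hp in
/-- An element with `c ^ m ∈ N₀`, `c ^ (p ^ a) = 1`, `m` prime to `p`, lies in `N₀`. -/
theorem mem_of_pow_mem_of_coprime {N₀ : Subgroup G} {c : G} {m a : ℕ} (hm : c ^ m ∈ N₀)
    (ha : c ^ (p ^ a) = 1) (hmp : m.Coprime p) : c ∈ N₀ := by
  have hc : Nat.Coprime m (p ^ a) := Nat.Coprime.pow_right a hmp
  have h1 : c ^ (1 : ℤ) = c ^ ((m.gcdA (p ^ a)) * (m : ℤ) + (m.gcdB (p ^ a)) * ((p ^ a : ℕ) : ℤ)) := by
    congr 1
    have := Nat.gcd_eq_gcd_ab m (p ^ a)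
    rw [hc.gcd_eq_one] at this
    push_cast at this ⊢
    linarith
  rw [zpow_one] at h1
  rw [h1, _root_.zpow_add, mul_comm (m.gcdA (p ^ a)), mul_comm (m.gcdB (p ^ a)), _root_.zpow_mul,
    _root_.zpow_mul, zpow_natCast, zpow_natCast, ha, _root_.one_zpow, mul_one]
  exact N₀.zpow_mem hm _

omit [Finite G] hp in
/-- One step of the chain: the commutator with a `p'`-element sinks one level. -/
theorem comm_mem_of_step {N N₀ : Subgroup G} (hN : IsPGroup p N) (h0 : N₀ ≤ N) {x e : G} {m : ℕ}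
    (hm : x ^ m = 1) (hmp : m.Coprime p) (hc : ⁅e, x⁆ ∈ N) (hn : ∀ n ∈ N, ⁅n, x⁆ ∈ N₀) :
    ⁅e, x⁆ ∈ N₀ := by
  set c : G := ⁅e, x⁆ with hcdef
  have h1 : x * e * x⁻¹ = c⁻¹ * e := by
    simp only [hcdef, commutatorElement_def]; group
  have h2 : ∀ k : ℕ, ∃ d ∈ N₀, x ^ k * e * x⁻¹ ^ k = d * c⁻¹ ^ k * e := by
    intro k
    induction k with
    | zero => exact ⟨1, N₀.one_mem, by simp⟩
    | succ k ih =>
      obtain ⟨d, hd, hk⟩ := ih
      have hnN : d * c⁻¹ ^ k ∈ N := N.mul_mem (h0 hd) (N.pow_mem (N.inv_mem hc) k)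
      refine ⟨⁅d * c⁻¹ ^ k, x⁆⁻¹ * d, N₀.mul_mem (N₀.inv_mem (hn _ hnN)) hd, ?_⟩
      have h3 : x * (d * c⁻¹ ^ k) * x⁻¹ = ⁅d * c⁻¹ ^ k, x⁆⁻¹ * (d * c⁻¹ ^ k) := by
        simp only [commutatorElement_def]; group
      calc x ^ (k + 1) * e * x⁻¹ ^ (k + 1) = x * (x ^ k * e * x⁻¹ ^ k) * x⁻¹ := by
            rw [pow_succ' x k, pow_succ x⁻¹ k]; group
        _ = (x * (d * c⁻¹ ^ k) * x⁻¹) * (x * e * x⁻¹) := by rw [hk]; group
        _ = ⁅d * c⁻¹ ^ k, x⁆⁻¹ * d * c⁻¹ ^ (k + 1) * e := by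
            rw [h3, h1, pow_succ]; group
  obtain ⟨d, hd, hk⟩ := h2 m
  have hm' : x⁻¹ ^ m = 1 := by rw [inv_pow, hm, inv_one]
  rw [hm, hm', one_mul, mul_one] at hk
  have h4 : d = c ^ m := by
    have h5 : (1 : G) = d * c⁻¹ ^ m := by
      have := congrArg (· * e⁻¹) hk
      simpa [mul_assoc] using this
    rw [inv_pow] at h5
    exact mul_inv_eq_one.1 h5.symm
  obtain ⟨a, ha⟩ := hN ⟨c, hc⟩
  have ha' : c ^ (p ^ a) = 1 := by simpa [Subtype.ext_iff] using ha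
  exact mem_of_pow_mem_of_coprime (h4 ▸ hd) ha' hmp

omit [Finite G] hp in
/-- A commutator of a `p'`-element of `E` with `x`, central in `E` and of `p`-power order, is trivial. -/
theorem comm_eq_one_of_central {E : Subgroup G} {x e : G} (he : e ∈ E)
    (hcen : ∀ f ∈ E, ⁅f, x⁆ ∈ centralizer (E : Set G))
    (ho : (orderOf e).Coprime p) {a : ℕ} (ha : ⁅e, x⁆ ^ (p ^ a) = 1) : ⁅e, x⁆ = 1 := by
  have hpow : ∀ k : ℕ, ⁅e ^ k, x⁆ = ⁅e, x⁆ ^ k := by
    intro k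
    induction k with
    | zero => simp
    | succ k ih =>
      have hek : e ^ k ∈ E := E.pow_mem he k
      have h1 : ⁅e ^ k, x⁆ * e = e * ⁅e ^ k, x⁆ := by
        have := mem_centralizer_iff.1 (hcen _ hek) e he
        exact this.symm
      have h2 : ⁅e ^ (k + 1), x⁆ = (e * ⁅e ^ k, x⁆ * e⁻¹) * ⁅e, x⁆ := by
        rw [pow_succ']
        simp only [commutatorElement_def]; group
      rw [h2, ← h1, mul_inv_cancel_right, ih, pow_succ]
  have h3 : ⁅e, x⁆ ^ orderOf e = 1 := by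
    rw [← hpow, pow_orderOf_eq_one]
    simp
  have h4 := mem_of_pow_mem_of_coprime (p := p) (N₀ := (⊥ : Subgroup G)) (c := ⁅e, x⁆)
    (m := orderOf e) (a := a) (by rw [h3]; exact one_mem _) ha ho
  simpa using h4

/-- **Piece B.** -/
theorem comm_eq_bot_of_chain {T : Sylow p G} {E X : Subgroup G}
    (hE : IsBaumannBlock p (T : Subgroup G) E)
    (hXE : X ≤ normalizer (E : Set G)) (hres : pResidualOf p X = X)
    (h0 : ∀ e ∈ E, ∀ x ∈ X, ⁅e, x⁆ ∈ Qb p E) (h1 : ∀ q ∈ Qb p E, ∀ x ∈ X, ⁅q, x⁆ ∈ Wb p E)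
    (h2 : ∀ w ∈ Wb p E, ∀ x ∈ X, ⁅w, x⁆ ∈ Zb p E) : ⁅E, X⁆ = ⊥ := by
  have hQp : IsPGroup p (Qb p E) := Cfsg.Agent.Lib.PGroup.LargeSub2.isPGroup_pCoreOf E
  have hWp : IsPGroup p (Wb p E) := hQp.to_le (omegaOneCenter_le _)
  rw [Subgroup.commutator_comm, Subgroup.commutator_eq_bot_iff_le_centralizer]
  refine Cfsg.Agent.Lib.PGroup.BaumannNorm.forall_mem_of_pResidualOf (p := p) hres ?_
  intro x hx hxo
  have hxm : x ^ orderOf x = 1 := pow_orderOf_eq_one x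
  have hW : ∀ e ∈ E, ⁅e, x⁆ ∈ Wb p E := fun e he =>
    comm_mem_of_step hQp (omegaOneCenter_le _) hxm hxo (h0 e he x hx) (fun q hq => h1 q hq x hx)
  have hZ : ∀ e ∈ E, ⁅e, x⁆ ∈ Zb p E := fun e he =>
    comm_mem_of_step hWp inf_le_left hxm hxo (hW e he) (fun w hw => h2 w hw x hx)
  have hE1 : E ≤ (centralizer ({x} : Set G)) := by
    refine Cfsg.Agent.Lib.PGroup.BaumannNorm.forall_mem_of_pResidualOf (p := p) hE.1 ?_
    intro e he heo
    obtain ⟨a, ha⟩ := hWp ⟨_, hW e he⟩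
    have ha' : ⁅e, x⁆ ^ (p ^ a) = 1 := by simpa [Subtype.ext_iff] using ha
    have h3 := comm_eq_one_of_central he (fun f hf => (hZ f hf).2) heo ha'
    rw [mem_centralizer_iff]
    intro y hy
    rw [Set.mem_singleton_iff] at hy
    subst hy
    exact (commutatorElement_eq_one_iff_commute.1 h3).symm.eq
  rw [mem_centralizer_iff]
  intro e he
  exact (mem_centralizer_iff.1 (hE1 he) x rfl).symm

end Cfsg.Agent.Lib.BPair
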