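import Mathlib
import Cfsg.Agent.Lib.BPair.Defs

/-! PIECE L of S2986: two `Q₈`-subgroups of `GL(A)` (`A` a finite `𝔽₃`-space), each with a
2-dimensional commutator space and acted on it as `SL₂(𝔽₃)'`, inside a common 2-group, either coincide
or commute with disjoint commutator spaces.  Induction on `|X ⊔ X'|`. -/

set_option autoImplicit false
namespace Cfsg.Agent.Lib.BPair
open Subgroup Matrix
open scoped commutatorElement

namespace LemmaLAux

variable {A : Type*} [AddCommGroup A] [Module (ZMod 3) A]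

theorem add3 (a : A) : a + a + a = 0 := by
  have h : (3 : ZMod 3) • a = 0 := by
    have : (3 : ZMod 3) = 0 := by decide
    rw [this, zero_smul]
  have h2 : (3 : ZMod 3) • a = a + a + a := by
    rw [show (3 : ZMod 3) = 1 + 1 + 1 by decide, add_smul, add_smul, one_smul]
  rw [← h2, h]

theorem eq_of_add_self {a b : A} (h : a + a = b + b) : a = b := by
  linear_combination (norm := abel) - h + add3 a - add3 b

theorem inv_app (x : A ≃ₗ[ZMod 3] A) (a : A) : x⁻¹ (x a) = a := by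
  have : (x⁻¹ * x) a = a := by simp
  exact this

theorem app_inv (x : A ≃ₗ[ZMod 3] A) (a : A) : x (x⁻¹ a) = a := by
  have : (x * x⁻¹) a = a := by simp
  exact this

theorem inv_eq {x : A ≃ₗ[ZMod 3] A} {a b : A} (h : x b = a) : x⁻¹ a = b := by
  rw [← h, inv_app]

theorem unip {x : A ≃ₗ[ZMod 3] A} {S : Submodule (ZMod 3) A} (hx : ∃ n : ℕ, x ^ (2 ^ n) = 1)
    (h1 : ∀ a, x a - a ∈ S) (h2 : ∀ s ∈ S, x s = s) : x = 1 := by
  have h3 : x ^ 3 = 1 := by
    ext a
    have hs : x (x a - a) = x a - a := h2 _ (h1 a)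
    rw [map_sub] at hs
    have e1 : x (x a) = x a + x a - a := by
      linear_combination (norm := abel) hs
    have e2 : x (x (x a)) = a := by
      rw [e1, map_sub, map_add, e1]
      linear_combination (norm := abel) add3 (x a) + add3 a - add3 a - add3 a
    show (x ^ 3) a = (1 : A ≃ₗ[ZMod 3] A) a
    rw [pow_succ, pow_two]
    exact e2
  obtain ⟨n, hn⟩ := hx
  have a1 : orderOf x ∣ 3 := orderOf_dvd_of_pow_eq_one h3
  have a2 : orderOf x ∣ 2 ^ n := orderOf_dvd_of_pow_eq_one hn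
  have a3 : Nat.Coprime 3 (2 ^ n) := Nat.Coprime.pow_right n (by decide)
  exact orderOf_eq_one_iff.1 (Nat.eq_one_of_dvd_coprimes a3 a1 a2)

/-- Intrinsic form of `IsQ8` (invariant under conjugation). -/
structure Q8' (X : Subgroup (A ≃ₗ[ZMod 3] A)) (M : Submodule (ZMod 3) A) : Prop where
  sub : ∀ x ∈ X, ∀ a : A, x a - a ∈ M
  min : ∀ S : Submodule (ZMod 3) A, (∀ x ∈ X, ∀ a : A, x a - a ∈ S) → M ≤ S
  card : Nat.card M = 9
  shape : ∀ x ∈ X, (∀ m ∈ M, x m = m) ∨ (∀ m ∈ M, x m = -m) ∨ (∀ m ∈ M, x (x m) = -m)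
  ii : ∃ i ∈ X, ∀ m ∈ M, i (i m) = -m
  trans : ∀ v ∈ M, ∀ w ∈ M, v ≠ 0 → w ≠ 0 → ∃ x ∈ X, x v = w
  real : ∀ T : A →ₗ[ZMod 3] A, (∀ m ∈ M, T m ∈ M) →
    ((∀ m ∈ M, T m = m) ∨ (∀ m ∈ M, T m = -m) ∨ (∀ m ∈ M, T (T m) = -m)) →
    ∃ x ∈ X, ∀ m ∈ M, x m = T m

variable {X X' : Subgroup (A ≃ₗ[ZMod 3] A)} {M M' : Submodule (ZMod 3) A}

theorem Q8'.mem (h : Q8' X M) {x : A ≃ₗ[ZMod 3] A} (hx : x ∈ X) {m : A} (hm : m ∈ M) : x m ∈ M := by
  have := M.add_mem (h.sub x hx m) hm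
  rwa [sub_add_cancel] at this

theorem Q8'.zz (h : Q8' X M) : ∃ z ∈ X, ∀ m ∈ M, z m = -m := by
  obtain ⟨z, hz, h'⟩ := h.real (-LinearMap.id) (fun m hm => by simpa using M.neg_mem hm)
    (Or.inr (Or.inl (fun m _ => by simp)))
  exact ⟨z, hz, fun m hm => by simpa using h' m hm⟩

theorem Q8'.exists_ne (h : Q8' X M) : ∃ v ∈ M, v ≠ 0 := by
  by_contra hc
  have hb : M = ⊥ := (Submodule.eq_bot_iff M).2 (fun x hx => by_contra (fun h0 => hc ⟨x, hx, h0⟩))
  have c := h.card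
  rw [hb] at c
  simp at c

variable [Finite A]

theorem eq_of_le_card (h : M ≤ M') (hc : Nat.card M = 9) (hc' : Nat.card M' = 9) : M = M' := by
  have h1 : (M : Set A).ncard = 9 := by rw [← Nat.card_coe_set_eq]; exact hc
  have h2 : (M' : Set A).ncard = 9 := by rw [← Nat.card_coe_set_eq]; exact hc'
  apply SetLike.coe_injective
  exact Set.eq_of_subset_of_ncard_le h (by rw [h1, h2]) (Set.toFinite _)

omit [Finite A] in
theorem Q8'.central (h : Q8' X M) (hX : ∀ y ∈ X, ∃ n : ℕ, y ^ (2 ^ n) = 1) {z : A ≃ₗ[ZMod 3] A} (hzX : z ∈ X)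
    (hz : ∀ m ∈ M, z m = -m) {x : A ≃ₗ[ZMod 3] A} (hx : x ∈ X) : z * x = x * z := by
  have hc : z * x * z⁻¹ * x⁻¹ ∈ X :=
    X.mul_mem (X.mul_mem (X.mul_mem hzX hx) (X.inv_mem hzX)) (X.inv_mem hx)
  have : z * x * z⁻¹ * x⁻¹ = 1 := by
    apply unip (hX _ hc) (h.sub _ hc)
    intro m hm
    have hn : x⁻¹ m ∈ M := h.mem (X.inv_mem hx) hm
    have e : z⁻¹ (x⁻¹ m) = -(x⁻¹ m) := by
      apply inv_eq
      rw [map_neg, hz _ hn, neg_neg]
    show z (x (z⁻¹ (x⁻¹ m))) = m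
    rw [e, map_neg, app_inv, map_neg, hz _ hm, neg_neg]
  calc z * x = (z * x * z⁻¹ * x⁻¹) * (x * z) := by group
    _ = x * z := by rw [this, one_mul]

omit [Finite A] in
theorem norm_inv (h : Q8' X M) {g : A ≃ₗ[ZMod 3] A} (hg : ∀ x ∈ X, g * x * g⁻¹ ∈ X) : ∀ m ∈ M, g m ∈ M := by
  have : M ≤ M.comap g.toLinearMap := by
    apply h.min
    intro x hx a
    show g (x a - a) ∈ M
    have h1 := h.sub _ (hg x hx) (g a)
    have e : (g * x * g⁻¹) (g a) = g (x a) := by
      show g (x (g⁻¹ (g a))) = _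
      rw [inv_app]
    rw [e] at h1
    rwa [map_sub]
  exact fun m hm => this hm

omit [Finite A] in
theorem same_M_le (h : Q8' X M) (h' : Q8' X' M) (hD : ∀ y ∈ X ⊔ X', ∃ n : ℕ, y ^ (2 ^ n) = 1) : X ≤ X' := by
  intro x hx
  obtain ⟨x', hx', e⟩ := h'.real (x : A →ₗ[ZMod 3] A) (fun m hm => h.mem hx hm) (h.shape x hx)
  have hy : x⁻¹ * x' ∈ X ⊔ X' :=
    (X ⊔ X').mul_mem ((X ⊔ X').inv_mem (le_sup_left (a := X) hx)) (le_sup_right (a := X) hx')
  have h1 : x⁻¹ * x' = 1 := by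
    apply unip (S := M) (hD _ hy)
    · intro a
      show x⁻¹ (x' a) - a ∈ M
      have s1 := h.sub _ (X.inv_mem hx) (x' a)
      have s2 := h'.sub _ hx' a
      have := M.add_mem s1 s2
      convert this using 1
      abel
    · intro m hm
      show x⁻¹ (x' m) = m
      rw [e m hm]
      exact inv_app x m
  rw [inv_mul_eq_one] at h1
  rwa [h1]

/-- The right alternative of the lemma. -/
def Alt (X X' : Subgroup (A ≃ₗ[ZMod 3] A)) (M M' : Submodule (ZMod 3) A) : Prop :=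
  (∀ x ∈ X, ∀ x' ∈ X', x * x' = x' * x) ∧ M ⊓ M' = ⊥ ∧ (∀ x ∈ X, ∀ m ∈ M', x m = m) ∧
    (∀ x' ∈ X', ∀ m ∈ M, x' m = m)

theorem norm_case (h : Q8' X M) (h' : Q8' X' M') (hD : ∀ y ∈ X ⊔ X', ∃ n : ℕ, y ^ (2 ^ n) = 1)
    (hN : ∀ g ∈ X', ∀ x ∈ X, g * x * g⁻¹ ∈ X) : (X = X' ∧ M = M') ∨ Alt X X' M M' := by
  have hMinv : ∀ g ∈ X', ∀ m ∈ M, g m ∈ M := fun g hg => norm_inv h (hN g hg)
  have hX : ∀ y ∈ X, ∃ n : ℕ, y ^ (2 ^ n) = 1 := fun y hy => hD y (le_sup_left (a := X) hy)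
  by_cases hbot : M ⊓ M' = ⊥
  · right
    have a1 : ∀ g ∈ X', ∀ m ∈ M, g m = m := by
      intro g hg m hm
      have : g m - m ∈ M ⊓ M' := ⟨M.sub_mem (hMinv g hg m hm) hm, h'.sub g hg m⟩
      rw [hbot] at this
      exact sub_eq_zero.1 (by simpa using this)
    obtain ⟨z, hz, hzM⟩ := h.zz
    have hz2 : z * z = 1 := by
      apply unip (hX _ (X.mul_mem hz hz)) (h.sub _ (X.mul_mem hz hz))
      intro m hm
      show z (z m) = m
      rw [hzM m hm, map_neg, hzM m hm, neg_neg]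
    have hzz : ∀ a, z (z a) = a := fun a => by
      have : (z * z) a = a := by rw [hz2]; rfl
      exact this
    have hzc : ∀ c, z c = c → ∀ x ∈ X, x c = c := by
      intro c hc x hx
      have hw := h.sub x hx c
      have e1 := hzM _ hw
      rw [map_sub, hc] at e1
      have e2 : z (x c) = x c := by
        have e3 : (z * x) c = (x * z) c := by rw [h.central hX hz hzM hx]
        have e4 : (x * z) c = x (z c) := rfl
        rw [hc] at e4
        exact e3.trans e4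
      rw [e2] at e1
      have : x c - c = 0 := by
        linear_combination (norm := abel) - e1 + add3 (x c - c)
      exact sub_eq_zero.1 this
    let C : Submodule (ZMod 3) A :=
      { carrier := {a | ∀ x ∈ X, x a = a}
        add_mem' := fun {a b} ha hb x hx => by rw [map_add, ha x hx, hb x hx]
        zero_mem' := fun x _ => map_zero x
        smul_mem' := fun r a ha x hx => by rw [map_smul, ha x hx] }
    have hMC : M' ≤ C := by
      apply h'.min
      intro g hg b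
      have hzc' : z (-(b + z b)) = -(b + z b) := by
        rw [map_neg, map_add, hzz, add_comm]
      have hcC := hzc _ hzc'
      have hm : z b - b ∈ M := h.sub z hz b
      have hgm : g (z b - b) = z b - b := a1 g hg _ hm
      have hbe : b = (z b - b) + -(b + z b) := by
        linear_combination (norm := abel) add3 b
      have e : g b - b = g (-(b + z b)) - (-(b + z b)) := by
        have e1 : g b = (z b - b) + g (-(b + z b)) := by
          conv_lhs => rw [hbe]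
          rw [map_add, hgm]
        linear_combination (norm := abel) e1 - hbe
      rw [e]
      intro x hx
      show x (g (-(b + z b)) - (-(b + z b))) = g (-(b + z b)) - (-(b + z b))
      rw [map_sub, hcC x hx]
      have hg1 : g⁻¹ * x * g ∈ X := by
        have := hN g⁻¹ (X'.inv_mem hg) x hx
        simpa using this
      have e5 : g⁻¹ (x (g (-(b + z b)))) = -(b + z b) := hcC _ hg1
      have e6 : x (g (-(b + z b))) = g (-(b + z b)) := by
        calc x (g (-(b + z b))) = g (g⁻¹ (x (g (-(b + z b))))) := (app_inv g _).symm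
          _ = g (-(b + z b)) := by rw [e5]
      rw [e6]
    have a2 : ∀ x ∈ X, ∀ m ∈ M', x m = m := fun x hx m hm => hMC hm x hx
    refine ⟨?_, hbot, a2, a1⟩
    intro x hx x' hx'
    have hxs : x ∈ X ⊔ X' := le_sup_left (a := X) hx
    have hxs' : x' ∈ X ⊔ X' := le_sup_right (a := X) hx'
    have hy : x * x' * x⁻¹ * x'⁻¹ ∈ X ⊔ X' :=
      (X ⊔ X').mul_mem ((X ⊔ X').mul_mem ((X ⊔ X').mul_mem hxs hxs') ((X ⊔ X').inv_mem hxs))
        ((X ⊔ X').inv_mem hxs')
    have : x * x' * x⁻¹ * x'⁻¹ = 1 := by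
      apply unip (S := M ⊔ M') (hD _ hy)
      · intro a
        show x (x' (x⁻¹ (x'⁻¹ a))) - a ∈ M ⊔ M'
        have s1 : x (x' (x⁻¹ (x'⁻¹ a))) - x' (x⁻¹ (x'⁻¹ a)) ∈ M := h.sub x hx _
        have s2 : x' (x⁻¹ (x'⁻¹ a)) - x⁻¹ (x'⁻¹ a) ∈ M' := h'.sub x' hx' _
        have s3 : x⁻¹ (x'⁻¹ a) - x'⁻¹ a ∈ M := h.sub _ (X.inv_mem hx) _
        have s4 : x'⁻¹ a - a ∈ M' := h'.sub _ (X'.inv_mem hx') _
        have := (M ⊔ M').add_mem ((M ⊔ M').add_mem ((M ⊔ M').add_mem (Submodule.mem_sup_left s1)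
          (Submodule.mem_sup_right s2)) (Submodule.mem_sup_left s3)) (Submodule.mem_sup_right s4)
        convert this using 1
        abel
      · intro s hs
        obtain ⟨m, hm, m', hm', rfl⟩ := Submodule.mem_sup.1 hs
        show x (x' (x⁻¹ (x'⁻¹ (m + m')))) = m + m'
        have n1 : x'⁻¹ m = m := a1 _ (X'.inv_mem hx') m hm
        have hn' : x'⁻¹ m' ∈ M' := h'.mem (X'.inv_mem hx') hm'
        have n2 : x⁻¹ (x'⁻¹ m') = x'⁻¹ m' := a2 _ (X.inv_mem hx) _ hn'
        have hmm : x⁻¹ m ∈ M := h.mem (X.inv_mem hx) hm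
        have n3 : x' (x⁻¹ m) = x⁻¹ m := a1 _ hx' _ hmm
        have n4 : x m' = m' := a2 _ hx _ hm'
        rw [map_add, n1, map_add, n2, map_add, n3, app_inv, map_add, app_inv, n4]
    calc x * x' = (x * x' * x⁻¹ * x'⁻¹) * (x' * x) := by group
      _ = x' * x := by rw [this, one_mul]
  · left
    obtain ⟨v, hv⟩ := (Submodule.ne_bot_iff _).1 hbot
    have hle : M' ≤ M := by
      intro w hw
      by_cases hw0 : w = 0
      · rw [hw0]; exact M.zero_mem
      · obtain ⟨g, hg, e⟩ := h'.trans v hv.1.2 w hw hv.2 hw0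
        rw [← e]
        exact hMinv g hg v hv.1.1
    have hEq : M' = M := eq_of_le_card hle h'.card h.card
    subst hEq
    refine ⟨le_antisymm (same_M_le h h' hD) (same_M_le h' h ?_), rfl⟩
    rw [sup_comm]
    exact hD

/-! Conjugates. -/

/-- The conjugate `g X g⁻¹`. -/
def cj (g : A ≃ₗ[ZMod 3] A) (X : Subgroup (A ≃ₗ[ZMod 3] A)) : Subgroup (A ≃ₗ[ZMod 3] A) :=
  X.comap (MulAut.conj g⁻¹).toMonoidHom

omit [Finite A] in
theorem mem_cj {g y : A ≃ₗ[ZMod 3] A} : y ∈ cj g X ↔ g⁻¹ * y * g ∈ X := by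
  simp [cj, Subgroup.mem_comap]

/-- The image `g M`. -/
def cjS (g : A ≃ₗ[ZMod 3] A) (M : Submodule (ZMod 3) A) : Submodule (ZMod 3) A :=
  M.comap (g⁻¹ : A ≃ₗ[ZMod 3] A).toLinearMap

omit [Finite A] in
theorem mem_cjS {g : A ≃ₗ[ZMod 3] A} {n : A} : n ∈ cjS g M ↔ g⁻¹ n ∈ M := Iff.rfl

omit [Finite A] in
theorem cj_mul (g h : A ≃ₗ[ZMod 3] A) : cj (g * h) X = cj g (cj h X) := by
  ext y
  rw [mem_cj, mem_cj, mem_cj]
  have : (g * h)⁻¹ * y * (g * h) = h⁻¹ * (g⁻¹ * y * g) * h := by group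
  rw [this]

omit [Finite A] in
theorem cj_one : cj 1 X = X := by
  ext y
  rw [mem_cj]
  simp

omit [Finite A] in
theorem N_inv {g : A ≃ₗ[ZMod 3] A} (h : cj g X = X) : cj g⁻¹ X = X := by
  have : cj g⁻¹ (cj g X) = cj (g⁻¹ * g) X := (cj_mul _ _).symm
  rw [h] at this
  rw [this, inv_mul_cancel, cj_one]

omit [Finite A] in
theorem N_conj {g : A ≃ₗ[ZMod 3] A} (h : cj g X = X) : ∀ x ∈ X, g * x * g⁻¹ ∈ X := by
  intro x hx
  have : g * x * g⁻¹ ∈ cj g X := mem_cj.2 (by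
    have e : g⁻¹ * (g * x * g⁻¹) * g = x := by group
    rwa [e])
  rwa [h] at this

omit [Finite A] in
theorem Q8'.conj (h : Q8' X M) (g : A ≃ₗ[ZMod 3] A) : Q8' (cj g X) (cjS g M) where
  sub y hy a := by
    rw [mem_cjS, map_sub]
    have h1 := h.sub _ (mem_cj.1 hy) (g⁻¹ a)
    have e : (g⁻¹ * y * g) (g⁻¹ a) = g⁻¹ (y a) := by
      show g⁻¹ (y (g (g⁻¹ a))) = _
      rw [app_inv]
    rwa [e] at h1
  min S hS := by
    have h1 : M ≤ S.comap g.toLinearMap := h.min _ (fun x hx a => by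
      show g (x a - a) ∈ S
      have hy : g * x * g⁻¹ ∈ cj g X := mem_cj.2 (by
        have e : g⁻¹ * (g * x * g⁻¹) * g = x := by group
        rwa [e])
      have h2 := hS _ hy (g a)
      have e : (g * x * g⁻¹) (g a) = g (x a) := by
        show g (x (g⁻¹ (g a))) = _
        rw [inv_app]
      rw [e] at h2
      rwa [map_sub])
    intro n hn
    have h2 : g (g⁻¹ n) ∈ S := h1 (mem_cjS.1 hn)
    rwa [app_inv] at h2
  card := by
    rw [← h.card]
    apply Nat.card_congr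
    exact
      { toFun := fun n => ⟨g⁻¹ n.1, n.2⟩
        invFun := fun m => ⟨g m.1, by rw [mem_cjS, inv_app]; exact m.2⟩
        left_inv := fun n => Subtype.ext (app_inv g n.1)
        right_inv := fun m => Subtype.ext (inv_app g m.1) }
  shape y hy := by
    have key : ∀ n, (g⁻¹ * y * g) (g⁻¹ n) = g⁻¹ (y n) := fun n => by
      show g⁻¹ (y (g (g⁻¹ n))) = _
      rw [app_inv]
    have inj : ∀ {a b : A}, g⁻¹ a = g⁻¹ b → a = b := fun e => (g⁻¹ : A ≃ₗ[ZMod 3] A).injective e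
    rcases h.shape _ (mem_cj.1 hy) with h1 | h1 | h1
    · left
      intro n hn
      have := h1 _ (mem_cjS.1 hn)
      rw [key] at this
      exact inj this
    · right; left
      intro n hn
      have := h1 _ (mem_cjS.1 hn)
      rw [key] at this
      apply inj
      rw [this, map_neg]
    · right; right
      intro n hn
      have := h1 _ (mem_cjS.1 hn)
      rw [key, key] at this
      apply inj
      rw [this, map_neg]
  ii := by
    obtain ⟨i, hi, hii⟩ := h.ii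
    refine ⟨g * i * g⁻¹, mem_cj.2 ?_, ?_⟩
    · have e : g⁻¹ * (g * i * g⁻¹) * g = i := by group
      rwa [e]
    · intro n hn
      show g (i (g⁻¹ (g (i (g⁻¹ n))))) = -n
      rw [inv_app, hii _ (mem_cjS.1 hn), map_neg, app_inv]
  trans v hv w hw hv0 hw0 := by
    have h0 : ∀ a : A, a ≠ 0 → g⁻¹ a ≠ 0 := fun a ha e => ha (by
      have := (g⁻¹ : A ≃ₗ[ZMod 3] A).injective (e.trans (map_zero _).symm)
      exact this)
    obtain ⟨x, hx, e⟩ := h.trans _ (mem_cjS.1 hv) _ (mem_cjS.1 hw) (h0 v hv0) (h0 w hw0)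
    refine ⟨g * x * g⁻¹, mem_cj.2 ?_, ?_⟩
    · have e' : g⁻¹ * (g * x * g⁻¹) * g = x := by group
      rwa [e']
    · show g (x (g⁻¹ v)) = w
      rw [e, app_inv]
  real T hT hs := by
    have hgm : ∀ m ∈ M, g m ∈ cjS g M := fun m hm => by rw [mem_cjS, inv_app]; exact hm
    let T₀ : A →ₗ[ZMod 3] A := (g⁻¹ : A ≃ₗ[ZMod 3] A).toLinearMap ∘ₗ T ∘ₗ g.toLinearMap
    have hT₀ : ∀ a, T₀ a = g⁻¹ (T (g a)) := fun _ => rfl
    obtain ⟨x, hx, e⟩ := h.real T₀ (fun m hm => by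
        rw [hT₀]; exact hT _ (hgm m hm)) (by
        rcases hs with h1 | h1 | h1
        · left
          intro m hm
          rw [hT₀, h1 _ (hgm m hm), inv_app]
        · right; left
          intro m hm
          rw [hT₀, h1 _ (hgm m hm), map_neg, inv_app]
        · right; right
          intro m hm
          rw [hT₀, hT₀, app_inv, h1 _ (hgm m hm), map_neg, inv_app])
    refine ⟨g * x * g⁻¹, mem_cj.2 ?_, ?_⟩
    · have e' : g⁻¹ * (g * x * g⁻¹) * g = x := by group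
      rwa [e']
    · intro n hn
      show g (x (g⁻¹ n)) = T n
      rw [e _ (mem_cjS.1 hn), hT₀, app_inv, app_inv]

theorem iv_contra (h : Q8' X M) (h' : Q8' X' M')
    (hX' : ∀ y ∈ X', ∃ n : ℕ, y ^ (2 ^ n) = 1)
    (hAlt : ∀ g ∈ X', cj g X ≠ X → Alt X (cj g X) M (cjS g M))
    {g₀ : A ≃ₗ[ZMod 3] A} (hg₀ : g₀ ∈ X') (hng₀ : cj g₀ X ≠ X) : False := by
  obtain ⟨z, hz, hzM⟩ := h.zz
  have A₀ := hAlt g₀ hg₀ hng₀
  have hinj : ∀ t ∈ M, g₀ t = t → t = 0 := by
    intro t ht he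
    have h1 : t ∈ M ⊓ cjS g₀ M := Submodule.mem_inf.2 ⟨ht, by rw [mem_cjS, inv_eq he]; exact ht⟩
    rw [A₀.2.1] at h1
    simpa using h1
  have hsurj : ∀ w ∈ M', ∃ u ∈ M, g₀ u - u = w := by
    let f : ↥M → ↥M' := fun u => ⟨g₀ u.1 - u.1, h'.sub _ hg₀ _⟩
    have finj : Function.Injective f := by
      intro a b hab
      have e : g₀ a.1 - a.1 = g₀ b.1 - b.1 := congrArg Subtype.val hab
      have h2 : a.1 - b.1 = 0 := hinj _ (M.sub_mem a.2 b.2) (by
        rw [map_sub]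
        linear_combination (norm := abel) e)
      exact Subtype.ext (sub_eq_zero.1 h2)
    have fsurj := (Function.Injective.bijective_of_nat_card_le finj (by rw [h.card, h'.card])).2
    intro w hw
    obtain ⟨u, hu⟩ := fsurj ⟨w, hw⟩
    exact ⟨u.1, u.2, congrArg Subtype.val hu⟩
  have third : ∀ k ∈ X', cj k X ≠ X → cj (g₀⁻¹ * k) X = X := by
    intro k hk hnk
    by_contra hw
    have Ak := hAlt k hk hnk
    have Aw := hAlt (g₀⁻¹ * k) (X'.mul_mem (X'.inv_mem hg₀) hk) hw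
    obtain ⟨v, hv, hv0⟩ := h.exists_ne
    have hkv : k v - v ∈ M' := h'.sub _ hk _
    obtain ⟨u, hu, hue⟩ := hsurj _ hkv
    have z1 : z (k v) = k v := Ak.2.2.1 z hz _ (by rw [mem_cjS, inv_app]; exact hv)
    have z2 : z (g₀ u) = g₀ u := A₀.2.2.1 z hz _ (by rw [mem_cjS, inv_app]; exact hu)
    have z3 := hzM v hv
    have z4 := hzM u hu
    have e1 : g₀ u + u = k v + v := by
      have h3 := congrArg z hue
      rw [map_sub, map_sub, z1, z2, z3, z4] at h3
      linear_combination (norm := abel) h3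
    have e2 : g₀ u = k v := by
      apply eq_of_add_self
      linear_combination (norm := abel) e1 + hue
    have e3 : u = v := by
      rw [e2] at hue
      linear_combination (norm := abel) - hue
    have e4 : (g₀⁻¹ * k) v = v := by
      show g₀⁻¹ (k v) = v
      rw [← e2, e3, inv_app]
    have h4 : v ∈ M ⊓ cjS (g₀⁻¹ * k) M := Submodule.mem_inf.2 ⟨hv, by rw [mem_cjS, inv_eq e4]; exact hv⟩
    rw [Aw.2.1] at h4
    exact hv0 (by simpa using h4)
  obtain ⟨i', hi', hii⟩ := h'.ii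
  have hNz : cj (i' * i') X = X := by
    by_cases hn : cj i' X = X
    · rw [cj_mul, hn, hn]
    · have h1 := third i' hi' hn
      have hn' : cj i'⁻¹ X ≠ X := fun e => hn (by
        have := N_inv e
        rwa [inv_inv] at this)
      have h2 := third i'⁻¹ (X'.inv_mem hi') hn'
      have e : i' * i' = (g₀⁻¹ * i'⁻¹)⁻¹ * (g₀⁻¹ * i') := by group
      rw [e, cj_mul, h1, N_inv h2]
  have hz'X : i' * i' ∈ X' := X'.mul_mem hi' hi'
  have hz'M' : ∀ m ∈ M', (i' * i') m = -m := hii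
  have hz'inv : ∀ m ∈ M, (i' * i') m ∈ M := norm_inv h (fun x hx => N_conj hNz x hx)
  have hcomm : (i' * i') * g₀ = g₀ * (i' * i') := h'.central hX' hz'X hz'M' hg₀
  have hv1 : ∀ v ∈ M, (i' * i') v = -v := by
    intro v hv
    have hw : g₀ v - v ∈ M' := h'.sub _ hg₀ _
    have e := hz'M' _ hw
    rw [map_sub] at e
    have e2 : (i' * i') (g₀ v) = g₀ ((i' * i') v) := by
      have h3 : ((i' * i') * g₀) v = (g₀ * (i' * i')) v := by rw [hcomm]
      exact h3
    rw [e2] at e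
    have t0 := hinj ((i' * i') v + v) (M.add_mem (hz'inv v hv) hv) (by
      rw [map_add]
      linear_combination (norm := abel) e)
    exact eq_neg_of_add_eq_zero_left t0
  have hMM : M ≤ M' := by
    intro v hv'
    have h3 := h'.sub _ hz'X v
    rw [hv1 v hv'] at h3
    have e : -v - v = v := by linear_combination (norm := abel) - add3 v
    rwa [e] at h3
  have hEq := eq_of_le_card hMM h.card h'.card
  obtain ⟨v, hv, hv0⟩ := h.exists_ne
  have h1 : g₀ v ∈ M := by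
    rw [hEq]
    exact h'.mem hg₀ (hMM hv)
  have h2 : g₀ v ∈ M ⊓ cjS g₀ M := Submodule.mem_inf.2 ⟨h1, by rw [mem_cjS, inv_app]; exact hv⟩
  rw [A₀.2.1] at h2
  have h3 : g₀ v = 0 := by simpa using h2
  exact hv0 (g₀.injective (h3.trans (map_zero g₀).symm))

theorem finU : Finite (A ≃ₗ[ZMod 3] A) :=
  Finite.of_injective (fun f : A ≃ₗ[ZMod 3] A => (f : A → A)) DFunLike.coe_injective

theorem exists_H {D : Subgroup (A ≃ₗ[ZMod 3] A)} (hD : ∀ y ∈ D, ∃ n : ℕ, y ^ (2 ^ n) = 1)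
    (hXD : X ≤ D) (hne : X ≠ D) : ∃ H : Subgroup (A ≃ₗ[ZMod 3] A), X ≤ H ∧ H ≤ D ∧
      Nat.card H < Nat.card D ∧ ∀ g ∈ D, ∀ h ∈ H, g * h * g⁻¹ ∈ H := by
  have := finU (A := A)
  have : Fact (Nat.Prime 2) := ⟨Nat.prime_two⟩
  have hp : IsPGroup 2 ↥D := fun y => by
    obtain ⟨n, hn⟩ := hD y y.2
    exact ⟨n, Subtype.ext (by simpa using hn)⟩
  have : Group.IsNilpotent ↥D := hp.isNilpotent
  have hnc : NormalizerCondition ↥D := Group.normalizerCondition_of_isNilpotent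
  have hne' : X.subgroupOf D ≠ ⊤ := by
    intro e
    apply hne
    exact le_antisymm hXD (subgroupOf_eq_top.1 e)
  obtain ⟨H₁, hH₁, hle⟩ := (eq_top_or_exists_le_coatom (X.subgroupOf D)).resolve_left hne'
  have hnorm := hnc.normal_of_coatom H₁ hH₁
  refine ⟨H₁.map D.subtype, ?_, map_subtype_le _, ?_, ?_⟩
  · intro x hx
    exact ⟨⟨x, hXD hx⟩, hle (mem_subgroupOf.2 hx), rfl⟩
  · have e : Nat.card ↥(H₁.map D.subtype) = Nat.card H₁ :=
      Nat.card_congr (H₁.equivMapOfInjective D.subtype D.subtype_injective).toEquiv.symm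
    rw [e]
    have h1 := H₁.card_mul_index
    have hi : H₁.index ≠ 1 := by
      rw [Ne, Subgroup.index_eq_one]
      exact hH₁.1
    have hi0 : H₁.index ≠ 0 := Subgroup.index_ne_zero_of_finite
    have h2 : 2 ≤ H₁.index := by omega
    have hc : 0 < Nat.card H₁ := Nat.card_pos
    nlinarith
  · rintro g hg _ ⟨h, hh, rfl⟩
    exact ⟨⟨g, hg⟩ * h * ⟨g, hg⟩⁻¹, hnorm.conj_mem h hh _, rfl⟩

theorem main_aux : ∀ n : ℕ, ∀ (X X' : Subgroup (A ≃ₗ[ZMod 3] A)) (M M' : Submodule (ZMod 3) A),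
    Nat.card ↥(X ⊔ X') = n → Q8' X M → Q8' X' M' → (∀ y ∈ X ⊔ X', ∃ k : ℕ, y ^ (2 ^ k) = 1) →
    (X = X' ∧ M = M') ∨ Alt X X' M M' := by
  have := finU (A := A)
  intro n
  induction n using Nat.strong_induction_on with
  | _ n ih =>
    intro X X' M M' hn h h' hD
    by_cases hN : ∀ g ∈ X', ∀ x ∈ X, g * x * g⁻¹ ∈ X
    · exact norm_case h h' hD hN
    · exfalso
      have hX' : ∀ y ∈ X', ∃ k : ℕ, y ^ (2 ^ k) = 1 := fun y hy => hD y (le_sup_right (a := X) hy)
      have hex : ∃ g₀ ∈ X', cj g₀ X ≠ X := by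
        by_contra hc
        apply hN
        intro g hg x hx
        exact N_conj (by_contra (fun e => hc ⟨g, hg, e⟩)) x hx
      obtain ⟨g₀, hg₀, hng₀⟩ := hex
      have hne : X ≠ X ⊔ X' := by
        intro e
        apply hN
        intro g hg x hx
        have hgX : g ∈ X := by
          have : g ∈ X ⊔ X' := le_sup_right (a := X) hg
          rwa [← e] at this
        exact X.mul_mem (X.mul_mem hgX hx) (X.inv_mem hgX)
      obtain ⟨H, hXH, hHD, hcard, hnorm⟩ := exists_H hD le_sup_left hne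
      refine iv_contra h h' hX' ?_ hg₀ hng₀
      intro g hg hng
      have hcjH : cj g X ≤ H := by
        intro y hy
        have h1 := hXH (mem_cj.1 hy)
        have h2 := hnorm g (le_sup_right (a := X) hg) _ h1
        have e : g * (g⁻¹ * y * g) * g⁻¹ = y := by group
        rwa [e] at h2
      have hsup : X ⊔ cj g X ≤ H := sup_le hXH hcjH
      have hlt : Nat.card ↥(X ⊔ cj g X) < n := by
        rw [← hn]
        exact lt_of_le_of_lt (Subgroup.card_le_of_le hsup) hcard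
      rcases ih _ hlt X (cj g X) M (cjS g M) rfl h (h.conj g) (fun y hy => hD y (hHD (hsup hy))) with hl | hr
      · exact absurd hl.1.symm hng
      · exact hr

/-! Decidable facts on `SL₂(𝔽₃)`. -/

/-- `SL₂(𝔽₃)`. -/
abbrev SL23' := Matrix.SpecialLinearGroup (Fin 2) (ZMod 3)

/-- Elements of the commutator subgroup of `SL₂(𝔽₃)`: `±1` and the elements of square `-1`. -/
def isQ (k : SL23') : Prop := k.1 = 1 ∨ k.1 = -1 ∨ k.1 * k.1 = -1

instance : DecidablePred isQ := fun k => by unfold isQ; infer_instance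

set_option maxRecDepth 100000 in
theorem isQ_mul : ∀ a b : SL23', isQ a → isQ b → isQ (a * b) := by decide +kernel
set_option maxRecDepth 100000 in
theorem isQ_inv : ∀ a : SL23', isQ a → isQ a⁻¹ := by decide +kernel
set_option maxRecDepth 100000 in
theorem isQ_comm : ∀ a b : SL23', isQ ⁅a, b⁆ := by decide +kernel
set_option maxRecDepth 100000 in
theorem comm_of_isQ : ∀ k : SL23', isQ k → ∃ a b : SL23', ⁅a, b⁆ = k := by decide +kernel
set_option maxRecDepth 100000 in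
theorem trans_dec : ∀ a b : Fin 2 → ZMod 3, a ≠ 0 → b ≠ 0 → ∃ k : SL23', isQ k ∧ S3act k a = b := by
  decide +kernel
set_option maxRecDepth 100000 in
theorem real_dec : ∀ B : Matrix (Fin 2) (Fin 2) (ZMod 3), (B = 1 ∨ B = -1 ∨ B * B = -1) →
    ∃ k : SL23', k.1 = B := by decide +kernel
set_option maxRecDepth 100000 in
theorem exists_i : ∃ k : SL23', k.1 * k.1 = -1 := by decide +kernel

/-- The subgroup of `isQ` elements. -/
def Qsub : Subgroup SL23' where
  carrier := {k | isQ k}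
  mul_mem' := fun ha hb => isQ_mul _ _ ha hb
  one_mem' := Or.inl rfl
  inv_mem' := fun ha => isQ_inv _ ha

theorem isQ_of_mem {k : SL23'} (hk : k ∈ commutator SL23') : isQ k := by
  have : commutator SL23' ≤ Qsub := by
    rw [commutator_def, Subgroup.commutator_le]
    intro a _ b _
    exact isQ_comm a b
  exact this hk

theorem mem_of_isQ {k : SL23'} (hk : isQ k) : k ∈ commutator SL23' := by
  obtain ⟨a, b, rfl⟩ := comm_of_isQ k hk
  rw [commutator_def]
  exact Subgroup.commutator_mem_commutator (mem_top a) (mem_top b)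

omit [Finite A] in
theorem of_isQ8 (hIs : IsQ8 X M) : Q8' X M := by
  obtain ⟨h1, h2, ψ, hψ1, hψ2⟩ := hIs
  have hsq : ∀ (k : SL23') (a : Fin 2 → ZMod 3), S3act k (S3act k a) = (k.1 * k.1).mulVec a := by
    intro k a
    show (k.1).mulVec ((k.1).mulVec a) = _
    rw [Matrix.mulVec_mulVec]
  refine ⟨h1, h2, ?_, ?_, ?_, ?_, ?_⟩
  · rw [Nat.card_congr ψ.toEquiv]
    simp [Nat.card_eq_fintype_card, ZMod.card]
  · intro x hx
    obtain ⟨k, hk, ha⟩ := hψ1 x hx
    rcases isQ_of_mem hk with c | c | c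
    · left
      intro m hm
      obtain ⟨h, e⟩ := ha ⟨m, hm⟩
      have e' : ψ ⟨x m, h⟩ = ψ ⟨m, hm⟩ := by
        rw [e, S3act, c, Matrix.one_mulVec]
      exact congrArg Subtype.val (ψ.injective e')
    · right; left
      intro m hm
      obtain ⟨h, e⟩ := ha ⟨m, hm⟩
      have e' : ψ ⟨x m, h⟩ = ψ (-⟨m, hm⟩) := by
        rw [e, S3act, c, Matrix.neg_mulVec, Matrix.one_mulVec, map_neg]
      exact congrArg Subtype.val (ψ.injective e')
    · right; right
      intro m hm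
      obtain ⟨h, e⟩ := ha ⟨m, hm⟩
      obtain ⟨h', e₂⟩ := ha ⟨x m, h⟩
      have e' : ψ ⟨x (x m), h'⟩ = ψ (-⟨m, hm⟩) := by
        rw [e₂, e, hsq, c, Matrix.neg_mulVec, Matrix.one_mulVec, map_neg]
      exact congrArg Subtype.val (ψ.injective e')
  · obtain ⟨k, c⟩ := exists_i
    obtain ⟨x, hx, ha⟩ := hψ2 k (mem_of_isQ (Or.inr (Or.inr c)))
    refine ⟨x, hx, ?_⟩
    intro m hm
    obtain ⟨h, e⟩ := ha ⟨m, hm⟩
    obtain ⟨h', e₂⟩ := ha ⟨x m, h⟩
    have e' : ψ ⟨x (x m), h'⟩ = ψ (-⟨m, hm⟩) := by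
      rw [e₂, e, hsq, c, Matrix.neg_mulVec, Matrix.one_mulVec, map_neg]
    exact congrArg Subtype.val (ψ.injective e')
  · intro v hv w hw hv0 hw0
    have n0 : ∀ (a : A) (ha : a ∈ M), a ≠ 0 → ψ ⟨a, ha⟩ ≠ 0 := fun a ha h0 e => h0 (by
      have := ψ.injective (e.trans (map_zero ψ).symm)
      exact congrArg Subtype.val this)
    obtain ⟨k, hk, ea⟩ := trans_dec _ _ (n0 v hv hv0) (n0 w hw hw0)
    obtain ⟨x, hx, ha⟩ := hψ2 k (mem_of_isQ hk)
    obtain ⟨h, e⟩ := ha ⟨v, hv⟩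
    refine ⟨x, hx, ?_⟩
    have e' : ψ ⟨x v, h⟩ = ψ ⟨w, hw⟩ := by rw [e, ea]
    exact congrArg Subtype.val (ψ.injective e')
  · intro T hT hs
    let T₁ : ↥M →ₗ[ZMod 3] ↥M := T.restrict hT
    let T' : (Fin 2 → ZMod 3) →ₗ[ZMod 3] (Fin 2 → ZMod 3) :=
      ψ.toLinearMap ∘ₗ T₁ ∘ₗ ψ.symm.toLinearMap
    have hT' : ∀ a, T' a = ψ (T₁ (ψ.symm a)) := fun _ => rfl
    have hBB : ∃ B : Matrix (Fin 2) (Fin 2) (ZMod 3), B = LinearMap.toMatrix' T' := ⟨_, rfl⟩
    obtain ⟨B, hB⟩ := hBB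
    have hBv : ∀ a, B.mulVec a = T' a := fun a => by
      rw [hB, LinearMap.toMatrix'_mulVec]
    have hcase : B = 1 ∨ B = -1 ∨ B * B = -1 := by
      rcases hs with h3 | h3 | h3
      · left
        have : T' = LinearMap.id := LinearMap.ext fun a => by
          rw [hT', LinearMap.id_apply]
          have e : T₁ (ψ.symm a) = ψ.symm a := Subtype.ext (h3 _ (ψ.symm a).2)
          rw [e, LinearEquiv.apply_symm_apply]
        rw [hB, this, LinearMap.toMatrix'_id]
      · right; left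
        have : T' = -LinearMap.id := LinearMap.ext fun a => by
          rw [hT', LinearMap.neg_apply, LinearMap.id_apply]
          have e : T₁ (ψ.symm a) = -ψ.symm a := Subtype.ext (h3 _ (ψ.symm a).2)
          rw [e, map_neg, LinearEquiv.apply_symm_apply]
        rw [hB, this, map_neg, LinearMap.toMatrix'_id]
      · right; right
        have : T'.comp T' = -LinearMap.id := LinearMap.ext fun a => by
          rw [LinearMap.comp_apply, hT', hT', LinearMap.neg_apply, LinearMap.id_apply,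
            LinearEquiv.symm_apply_apply]
          have e : T₁ (T₁ (ψ.symm a)) = -ψ.symm a := Subtype.ext (h3 _ (ψ.symm a).2)
          rw [e, map_neg, LinearEquiv.apply_symm_apply]
        rw [hB, ← LinearMap.toMatrix'_comp, this, map_neg, LinearMap.toMatrix'_id]
    obtain ⟨k, hk⟩ := real_dec B hcase
    have hkQ : isQ k := by
      unfold isQ
      rw [hk]
      exact hcase
    obtain ⟨x, hx, ha⟩ := hψ2 k (mem_of_isQ hkQ)
    refine ⟨x, hx, ?_⟩
    intro m hm
    obtain ⟨h, e⟩ := ha ⟨m, hm⟩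
    have e' : ψ ⟨x m, h⟩ = ψ (T₁ ⟨m, hm⟩) := by
      rw [e, S3act, hk, hBv, hT', LinearEquiv.symm_apply_apply]
    exact congrArg Subtype.val (ψ.injective e')

end LemmaLAux

section L
variable {A : Type*} [AddCommGroup A] [Module (ZMod 3) A] [Finite A]

theorem lemmaL {X X' : Subgroup (A ≃ₗ[ZMod 3] A)} {M M' : Submodule (ZMod 3) A} (hX : IsQ8 X M) (hX' : IsQ8 X' M')
    (hD : IsPGroup 2 (X ⊔ X' : Subgroup (A ≃ₗ[ZMod 3] A))) :
    (X = X' ∧ M = M') ∨
    ((∀ x ∈ X, ∀ x' ∈ X', x * x' = x' * x) ∧ M ⊓ M' = ⊥ ∧ (∀ x ∈ X, ∀ m ∈ M', x m = m) ∧ (∀ x' ∈ X', ∀ m ∈ M, x' m = m)) :=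
  LemmaLAux.main_aux _ X X' M M' rfl (LemmaLAux.of_isQ8 hX) (LemmaLAux.of_isQ8 hX') (fun y hy => by
    obtain ⟨k, hk⟩ := hD ⟨y, hy⟩
    exact ⟨k, by simpa using congrArg Subtype.val hk⟩)

end L

end Cfsg.Agent.Lib.BPair
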